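import Cfsg.Agent.Lib.Mult.ON.CVC0
import Cfsg.Agent.Lib.Grp.ON.Main

set_option autoImplicit false
set_option maxRecDepth 100000
set_option Elab.async false

namespace Cfsg.Agent.Mult.ON

open Cfsg.Agent.CG Cfsg.Agent.CG.ON

set_option linter.unusedSectionVars false

variable [hF : Fact (Bounds tcR tcS 460815505920)]
include hF

theorem pairs : ∀ p ∈ cvP, (∀ a ∈ p.1 ++ p.2, a ∈ tcS) ∧ ev act.gen (p.1 ++ p.2) = ev act.gen (p.2 ++ p.1) :=
  pairs_of_chk base cvc55

theorem pl0 : PL tcR cvP (ZMod 3) ([1].map Nat.cast) :=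
  haveI : NeZero cv0.m := ⟨by decide⟩
  Mono.pl (D := cv0) (by decide) (by decide +kernel)
    (show cv0.chk tcR 0 722 = true from (Mono.chk_append (Mono.chk_append (Mono.chk_append (Mono.chk_append (Mono.chk_append (Mono.chk_append (Mono.chk_append (Mono.chk_append (Mono.chk_append (Mono.chk_append (Mono.chk_append (Mono.chk_append (Mono.chk_append (Mono.chk_append (Mono.chk_append (Mono.chk_append (Mono.chk_append (Mono.chk_append (Mono.chk_append (Mono.chk_append (Mono.chk_append (Mono.chk_append (Mono.chk_append (Mono.chk_append (Mono.chk_append (Mono.chk_append (Mono.chk_append (Mono.chk_append (Mono.chk_append (Mono.chk_append (Mono.chk_append (Mono.chk_append (Mono.chk_append (Mono.chk_append (Mono.chk_append (Mono.chk_append (Mono.chk_append (Mono.chk_append (Mono.chk_append (Mono.chk_append (Mono.chk_append (Mono.chk_append (Mono.chk_append (Mono.chk_append (Mono.chk_append (Mono.chk_append (Mono.chk_append (Mono.chk_append (Mono.chk_append (Mono.chk_append (Mono.chk_append (Mono.chk_append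 (Mono.chk_append cvc0 cvc1) cvc2) cvc3) cvc4) cvc5) cvc6) cvc7) cvc8) cvc9) cvc10) cvc11) cvc12) cvc13) cvc14) cvc15) cvc16) cvc17) cvc18) cvc19) cvc20) cvc21) cvc22) cvc23) cvc24) cvc25) cvc26) cvc27) cvc28) cvc29) cvc30) cvc31) cvc32) cvc33) cvc34) cvc35) cvc36) cvc37) cvc38) cvc39) cvc40) cvc41) cvc42) cvc43) cvc44) cvc45) cvc46) cvc47) cvc48) cvc49) cvc50) cvc51) cvc52) cvc53))
    cvc54

theorem ex : EX PG (Multiplicative (ZMod 3)) :=
  PL.ex hF.out rels clS card.ge pl0 pairs (top_of_spanL (k := 3) (by decide +kernel))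

end Cfsg.Agent.Mult.ON
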