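import Cfsg.Agent.Lib.Mult.Glue
import Cfsg.Agent.Lib.Grp.ON.Main
import Cfsg.Agent.Lib.Mult.ON.P2
import Cfsg.Agent.Lib.Mult.ON.P3
import Cfsg.Agent.Lib.Mult.ON.P7

set_option autoImplicit false
set_option maxRecDepth 100000
set_option Elab.async false

namespace Cfsg.Agent.Mult.ON

open Cfsg.Agent.CG Cfsg.Agent.CG.ON

set_option linter.unusedSectionVars false

variable [hF : Fact (Bounds tcR tcS 460815505920)]
include hF

theorem pb5 : PB PG 5 [] :=
  pb_cyc base card (a := 0) (d := 1) (v := [10]) (by norm_num) (by decide +kernel)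

theorem pb11 : PB PG 11 [] :=
  pb_cyc base card (a := 0) (d := 1) (v := [23,14]) (by norm_num) (by decide +kernel)

theorem pb19 : PB PG 19 [] :=
  pb_cyc base card (a := 0) (d := 1) (v := [13]) (by norm_num) (by decide +kernel)

theorem pb31 : PB PG 31 [] :=
  pb_cyc base card (a := 0) (d := 1) (v := [34,40]) (by norm_num) (by decide +kernel)

theorem mb : MB PG [3] :=
  PBs.mb (PBs.cons pb2 (PBs.cons pb3 (PBs.cons pb5 (PBs.cons pb7 (PBs.cons pb11 (PBs.cons pb19 (PBs.cons pb31 PBs.nil))))))) card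
    (primes_of_eq_prod (ps := [2,3,5,7,11,19,31]) (es := [9,4,1,3,1,1,1]) (by simp only [List.forall_mem_cons]; norm_num) (by decide +kernel))

end Cfsg.Agent.Mult.ON
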